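import Cfsg.Agent.Lib.Helper99.X3.Defs
import Cfsg.Prelude.Def_LieClassical
import Cfsg.Agent.Lib.Helper5.SUOrder

set_option autoImplicit false
open scoped MatrixGroups

namespace Cfsg.Agent.Lib.Helper99.X3

open Cfsg.Agent.Lib.Helper13 Cfsg.Agent.Lib.Helper5

variable {F : Type*} [Field F]

local notation "M3" => Matrix (Fin 3) (Fin 3) F

theorem ADJU [Fintype F] {q : ℕ} (hF : Fintype.card F = q ^ 2) (R : Subgroup (GL (Fin 3) F))
    (P : GL (Fin 3) F) (hP : P ∈ Cfsg.GU 3 F q) (x : GL (Fin 3) F)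
    (Q : GL (Fin 3) F) (hQ : Q ∈ Cfsg.GU 3 F q) (c : F) (n0 : M3)
    (hcomm : ∀ d : F, Matrix.diagonal ![d, 1, 1] * n0 = n0 * Matrix.diagonal ![d, 1, 1])
    (hx' : (x : M3) = c • ((Q : M3) * n0 * ((Q⁻¹ : GL (Fin 3) F) : M3)))
    (hN : ∀ n : GL (Fin 3) F, (n : M3) = c • ((P : M3) * n0 * ((P⁻¹ : GL (Fin 3) F) : M3)) →
      n ∈ Cfsg.Geo.subgroupNormalizer R) :
    ∃ g ∈ Cfsg.GU 3 F q ⊓ Cfsg.Geo.specialLinear (Fin 3) F,
      g⁻¹ * x * g ∈ Cfsg.Geo.subgroupNormalizer R := by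
  set δ : Fˣ := Matrix.GeneralLinearGroup.det P * (Matrix.GeneralLinearGroup.det Q)⁻¹ with hδ
  have hdP : (Matrix.GeneralLinearGroup.det P) ^ (q + 1) = 1 := by
    apply Units.ext
    have := det_pow_eq_one_of_preserves hF (P : M3) hP
    simpa using this
  have hdQ : (Matrix.GeneralLinearGroup.det Q) ^ (q + 1) = 1 := by
    apply Units.ext
    have := det_pow_eq_one_of_preserves hF (Q : M3) hQ
    simpa using this
  have hδ1 : δ ^ (q + 1) = 1 := by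
    rw [hδ, mul_pow, inv_pow, hdP, hdQ, inv_one, one_mul]
  have hδ1' : (δ : F) ^ (q + 1) = 1 := by
    have := congrArg Units.val hδ1
    simpa using this
  have hdd : ∀ u v : F, Matrix.diagonal ![u, 1, 1] * Matrix.diagonal ![v, 1, 1]
      = (Matrix.diagonal ![u * v, 1, 1] : M3) := by
    intro u v
    rw [Matrix.diagonal_mul_diagonal]
    congr 1
    funext i
    fin_cases i <;> simp
  have hd1 : (Matrix.diagonal ![(1 : F), 1, 1] : M3) = 1 := by
    rw [← Matrix.diagonal_one]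
    congr 1
    funext i
    fin_cases i <;> simp
  let D : GL (Fin 3) F := ⟨Matrix.diagonal ![(δ : F), 1, 1], Matrix.diagonal ![((δ⁻¹ : Fˣ) : F), 1, 1],
    by rw [hdd, Units.mul_inv, hd1], by rw [hdd, Units.inv_mul, hd1]⟩
  have hD : (D : M3) = Matrix.diagonal ![(δ : F), 1, 1] := rfl
  have hDU : D ∈ Cfsg.GU 3 F q := by
    intro u v
    show Cfsg.hermForm 3 F q ((D : M3).mulVec u) ((D : M3).mulVec v) = _
    rw [hD]
    apply diagonal_preserves
    intro i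
    fin_cases i
    · simpa using hδ1'
    · simp
    · simp
  have hDdet : Matrix.GeneralLinearGroup.det D = δ := by
    apply Units.ext
    rw [Matrix.GeneralLinearGroup.val_det_apply, hD, Matrix.det_diagonal, Fin.prod_univ_three]
    simp
  have hy : ((Q⁻¹ * x * Q : GL (Fin 3) F) : M3) = c • n0 := by
    rw [Units.val_mul, Units.val_mul, hx', Matrix.mul_smul, Matrix.smul_mul]
    congr 1
    calc ((Q⁻¹ : GL (Fin 3) F) : M3) * ((Q : M3) * n0 * ((Q⁻¹ : GL (Fin 3) F) : M3)) * (Q : M3)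
        = (((Q⁻¹ : GL (Fin 3) F) : M3) * (Q : M3)) * n0 * (((Q⁻¹ : GL (Fin 3) F) : M3) * (Q : M3)) := by
          simp only [Matrix.mul_assoc]
      _ = n0 := by rw [← Units.val_mul, inv_mul_cancel, Units.val_one, one_mul, mul_one]
  have hDy : D * (Q⁻¹ * x * Q) = (Q⁻¹ * x * Q) * D := by
    apply Units.ext
    rw [Units.val_mul, Units.val_mul (Q⁻¹ * x * Q), hy, hD, Matrix.mul_smul, Matrix.smul_mul, hcomm]
  refine ⟨Q * D * P⁻¹, ⟨?_, ?_⟩, ?_⟩
  · exact (Cfsg.GU 3 F q).mul_mem ((Cfsg.GU 3 F q).mul_mem hQ hDU) ((Cfsg.GU 3 F q).inv_mem hP)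
  · show Q * D * P⁻¹ ∈ Cfsg.Geo.specialLinear (Fin 3) F
    unfold Cfsg.Geo.specialLinear
    rw [MonoidHom.mem_ker, map_mul, map_mul, map_inv, hDdet, hδ]
    rw [mul_comm (Matrix.GeneralLinearGroup.det P), ← mul_assoc, mul_inv_cancel, one_mul,
      mul_inv_cancel]
  · have hg : (Q * D * P⁻¹)⁻¹ * x * (Q * D * P⁻¹) = P * (Q⁻¹ * x * Q) * P⁻¹ := by
      calc (Q * D * P⁻¹)⁻¹ * x * (Q * D * P⁻¹) = P * (D⁻¹ * ((Q⁻¹ * x * Q) * D)) * P⁻¹ := by group
        _ = P * (D⁻¹ * (D * (Q⁻¹ * x * Q))) * P⁻¹ := by rw [hDy]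
        _ = P * (Q⁻¹ * x * Q) * P⁻¹ := by group
    apply hN
    rw [hg, Units.val_mul, Units.val_mul, hy, Matrix.mul_smul, Matrix.smul_mul]

end Cfsg.Agent.Lib.Helper99.X3
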