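import Cfsg.Agent.Lib.Helper99.X3.Defs
import Cfsg.Prelude.Def_LieClassical
import Cfsg.Agent.Lib.Helper5.SUOrder

set_option autoImplicit false
open scoped MatrixGroups

namespace Cfsg.Agent.Lib.Helper99.X3

open Cfsg.Agent.Lib.Helper13 Cfsg.Agent.Lib.Helper5

variable {F : Type*} [Field F]

local notation "M3" => Matrix (Fin 3) (Fin 3) F

theorem DETU [Fintype F] {q : ℕ} (hF : Fintype.card F = q ^ 2) (x : GL (Fin 3) F) (hx : x ∈ Cfsg.GU 3 F q) :
    (x : M3).det ^ (q + 1) = 1 :=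
  det_pow_eq_one_of_preserves hF (x : M3) hx

end Cfsg.Agent.Lib.Helper99.X3
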