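import Cfsg.Agent.Lib.Helper99.X3.Defs
import Cfsg.Prelude.Def_LieClassical

set_option autoImplicit false
open scoped MatrixGroups

namespace Cfsg.Agent.Lib.Helper99.X3

variable {F : Type*} [Field F]

theorem ETAU [Fintype F] {q : ℕ} (hF : Fintype.card F = q ^ 2) (h : q % 9 = 8) (z : F) (hz : z ^ 3 = 1) :
    ∃ η : F, η ^ 3 = z ∧ η ^ (q + 1) = 1 := by
  classical
  have hz0 : z ≠ 0 := by
    rintro rfl
    norm_num at hz
  obtain ⟨m, hm⟩ : ∃ m, q + 1 = 9 * m := ⟨(q + 1) / 9, by omega⟩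
  obtain ⟨r, hr⟩ : ∃ r, q = r + 1 := ⟨q - 1, by omega⟩
  have hcard : Fintype.card Fˣ = r * (9 * m) := by
    rw [Fintype.card_units, hF, ← hm, hr]
    have : (r + 1) ^ 2 = r * (r + 1 + 1) + 1 := by ring
    rw [this, Nat.add_sub_cancel]
  obtain ⟨γ, hγ⟩ := IsCyclic.exists_monoid_generator (α := Fˣ)
  obtain ⟨k, hk⟩ := hγ (Units.mk0 z hz0)
  replace hk : γ ^ k = Units.mk0 z hz0 := hk
  have ho : orderOf γ = r * (9 * m) := by
    rw [← hcard, ← Nat.card_eq_fintype_card]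
    apply orderOf_eq_card_of_forall_mem_powers hγ
  have h3 : γ ^ (k * 3) = 1 := by
    rw [pow_mul, hk]
    apply Units.ext
    simpa using hz
  have hd : r * (9 * m) ∣ k * 3 := by
    rw [← ho]
    exact orderOf_dvd_of_pow_eq_one h3
  obtain ⟨j, hj⟩ := hd
  have hk' : k = (r * m * j) * 3 := by
    have : k * 3 = (r * m * j * 3) * 3 := by rw [hj]; ring
    omega
  refine ⟨((γ ^ (r * m * j) : Fˣ) : F), ?_, ?_⟩
  · have : (γ ^ (r * m * j)) ^ 3 = Units.mk0 z hz0 := by
      rw [← pow_mul, ← hk', hk]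
    have h4 := congrArg Units.val this
    simpa using h4
  · have : (γ ^ (r * m * j)) ^ (q + 1) = 1 := by
      rw [← pow_mul, hm]
      have e : r * m * j * (9 * m) = (r * (9 * m)) * (m * j) := by ring
      rw [e, pow_mul, ← ho, pow_orderOf_eq_one, one_pow]
    have h4 := congrArg Units.val this
    simpa using h4

end Cfsg.Agent.Lib.Helper99.X3
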