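import Cfsg.Agent.Lib.Helper99.X3.Defs
import Cfsg.Prelude.Def_LieClassical
import Cfsg.Agent.Lib.Helper5.SUOrder

set_option autoImplicit false
open scoped MatrixGroups

namespace Cfsg.Agent.Lib.Helper99.X3

open Cfsg.Agent.Lib.Helper13 Cfsg.Agent.Lib.Helper5

variable {F : Type*} [Field F]

local notation "M3" => Matrix (Fin 3) (Fin 3) F

theorem SCU [Fintype F] {q : ℕ} (hF : Fintype.card F = q ^ 2) (x n : GL (Fin 3) F) (hx : x ∈ Cfsg.GU 3 F q)
    (c : F) (hc : c ^ (q + 1) = 1) (hn : (n : M3) = c • (x : M3)) : n ∈ Cfsg.GU 3 F q := by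
  intro u v
  show Cfsg.hermForm 3 F q ((n : M3).mulVec u) ((n : M3).mulVec v) = _
  rw [hn, Matrix.smul_mulVec, Matrix.smul_mulVec, hermForm_smul_left, hermForm_smul_right]
  have h1 : Cfsg.hermForm 3 F q ((x : M3).mulVec u) ((x : M3).mulVec v) = Cfsg.hermForm 3 F q u v :=
    hx u v
  rw [h1]
  rw [pow_succ] at hc
  linear_combination (Cfsg.hermForm 3 F q u v) * hc

end Cfsg.Agent.Lib.Helper99.X3
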